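-- Team project OFM (S5978): the cut of package [SYL4] (helper60).  Interface file.
import Mathlib
import Cfsg.Prelude.Def_GeometricClasses
import Cfsg.Prelude.Def_Classical
import Cfsg.Agent.Lib.Helper23.OHyp.Defs

/-!
# [SYL4]: an `r`-subgroup of an orthogonal group centralizes a structure `α'` when `4 ∣ i`

Everything is pointwise: matrices act on `ι → F` by `*ᵥ`.  `B = QuadraticMap.polar Q`.
`StrOn Q a W φ`: `φ` maps `W` to `W`, squares to `a` on `W`, and is self-adjoint on `W`.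
-/

set_option autoImplicit false

namespace Cfsg.Agent.Lib.Helper60.OFM

open Matrix Cfsg.Agent.Lib.Helper23.OHyp

universe u

section defs

variable {F : Type u} [Field F] {ι : Type} [Fintype ι] [DecidableEq ι]

/-- `φ` is a structure on `W`: it maps `W` to `W`, `φ (φ w) = a w` on `W`, and `φ` is
self-adjoint on `W` for the polar form. -/
def StrOn (Q : (ι → F) → F) (a : F) (W : Submodule F (ι → F)) (φ : Matrix ι ι F) : Prop :=
  (∀ w ∈ W, φ *ᵥ w ∈ W) ∧ (∀ w ∈ W, φ *ᵥ (φ *ᵥ w) = a • w) ∧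
    ∀ u ∈ W, ∀ v ∈ W, QuadraticMap.polar Q (φ *ᵥ u) v = QuadraticMap.polar Q u (φ *ᵥ v)

/-- `φ` commutes with `P` on `W`. -/
def CommOn (P : Subgroup (GL ι F)) (W : Submodule F (ι → F)) (φ : Matrix ι ι F) : Prop :=
  ∀ g ∈ P, ∀ w ∈ W, (g : Matrix ι ι F) *ᵥ (φ *ᵥ w) = φ *ᵥ ((g : Matrix ι ι F) *ᵥ w)

/-- `W` is `P`-invariant. -/
def InvP (P : Subgroup (GL ι F)) (W : Submodule F (ι → F)) : Prop :=
  ∀ g ∈ P, ∀ w ∈ W, (g : Matrix ι ι F) *ᵥ w ∈ W

/-- `1 + X + ⋯ + X ^ (r - 1)`. -/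
noncomputable def psi (F : Type u) [Field F] (r : ℕ) : Polynomial F :=
  ∑ k ∈ Finset.range r, (Polynomial.X : Polynomial F) ^ k

end defs

/-- [EX2] a nondegenerate plane carries a structure (for every `a`): with an orthogonal basis
`e, f` of `D`, `B e e = 2 c`, `B f f = 2 d`, take `φ e = x e + c t f`, `φ f = d t e - x f` with
`x ^ 2 + c d t ^ 2 = a` (`FiniteField.exists_root_sum_quadratic`). -/
def PkgEx2 : Prop :=
  ∀ {F : Type u} [Field F] [Fintype F], Odd (Fintype.card F) →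
    ∀ {ι : Type} [Fintype ι] [DecidableEq ι] (Q : (ι → F) → F),
    Cfsg.Geo.IsNondegenerateQuadraticForm Q → ∀ (a : F) (D : Submodule F (ι → F)),
    Nd Q D → Module.finrank F D = 2 → ∃ φ : Matrix ι ι F, StrOn Q a D φ

/-- [GLUE] structures on two orthogonal summands glue. -/
def PkgGlue : Prop :=
  ∀ {F : Type u} [Field F] [Fintype F], Odd (Fintype.card F) →
    ∀ {ι : Type} [Fintype ι] [DecidableEq ι] (Q : (ι → F) → F),
    Cfsg.Geo.IsNondegenerateQuadraticForm Q → ∀ (a : F) (W C N : Submodule F (ι → F)),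
    Nd Q C → Nd Q N → Perp Q C N → C ⊔ N = W →
    ∀ φC φN : Matrix ι ι F, StrOn Q a C φC → StrOn Q a N φN →
    ∃ φ : Matrix ι ι F, StrOn Q a W φ ∧ (∀ c ∈ C, φ *ᵥ c = φC *ᵥ c) ∧ (∀ n ∈ N, φ *ᵥ n = φN *ᵥ n)

/-- The conclusion of [EXK]. -/
def ExK : Prop :=
  ∀ {F : Type u} [Field F] [Fintype F], Odd (Fintype.card F) →
    ∀ {ι : Type} [Fintype ι] [DecidableEq ι] (Q : (ι → F) → F),
    Cfsg.Geo.IsNondegenerateQuadraticForm Q → ∀ (a : F) (W : Submodule F (ι → F)),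
    Nd Q W → Even (Module.finrank F W) → ∃ φ : Matrix ι ι F, StrOn Q a W φ

/-- [EXK] every nondegenerate subspace of even dimension carries a structure: induction on the
dimension, splitting off a nondegenerate plane (helper37's `pkgGeom` with `e = 2`, helper87's
`pkgPerp` with `x = 1`). -/
def PkgExK : Prop := PkgEx2.{u} → PkgGlue.{u} → ExK.{u}

/-- [CENTW] if the `r`-group `P` acts nontrivially on the invariant subspace `W`, some `z ∈ P`
acts nontrivially on `W`, with `z ^ r` trivial on `W`, and commutes on `W` with all of `P`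
(the centre of the nontrivial finite `r`-group `P / C_P(W)`). -/
def PkgCentW : Prop :=
  ∀ {F : Type u} [Field F] [Fintype F] {ι : Type} [Fintype ι] [DecidableEq ι]
    (r : ℕ), r.Prime → ∀ (P : Subgroup (GL ι F)), IsPGroup r P →
    ∀ W : Submodule F (ι → F), InvP P W →
    (¬ ∀ g ∈ P, ∀ w ∈ W, (g : Matrix ι ι F) *ᵥ w = w) →
    ∃ z ∈ P, (∃ w ∈ W, (z : Matrix ι ι F) *ᵥ w ≠ w) ∧
      (∀ w ∈ W, ((z : Matrix ι ι F) ^ r) *ᵥ w = w) ∧
      ∀ g ∈ P, ∀ w ∈ W, (g : Matrix ι ι F) *ᵥ ((z : Matrix ι ι F) *ᵥ w) =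
        (z : Matrix ι ι F) *ᵥ ((g : Matrix ι ι F) *ᵥ w)

/-- [RESTR] an isometry `z` stabilizing the nondegenerate subspace `W` agrees on `W` with an
isometry `z'` which is trivial on the orthogonal complement of `W`; so `z' ^ n = 1` whenever
`z ^ n` is trivial on `W`. -/
def PkgRestr : Prop :=
  ∀ {F : Type u} [Field F] [Fintype F], Odd (Fintype.card F) →
    ∀ {ι : Type} [Fintype ι] [DecidableEq ι] (Q : (ι → F) → F),
    Cfsg.Geo.IsNondegenerateQuadraticForm Q → ∀ (W : Submodule F (ι → F)), Nd Q W →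
    ∀ z : Matrix ι ι F, (∀ v, Q (z *ᵥ v) = Q v) → (∀ w ∈ W, z *ᵥ w ∈ W) →
    ∃ z' : Matrix ι ι F, (∀ v, Q (z' *ᵥ v) = Q v) ∧ (∀ w ∈ W, z' *ᵥ w = z *ᵥ w) ∧
      ∀ n : ℕ, (∀ w ∈ W, (z ^ n) *ᵥ w = w) → z' ^ n = 1

/-- [POLYA] polynomials in `x` stabilize `x`-invariant subspaces. -/
def PkgPolyA : Prop :=
  ∀ {F : Type u} [Field F] {ι : Type} [Fintype ι] [DecidableEq ι]
    (x : Matrix ι ι F) (U : Submodule F (ι → F)), (∀ u ∈ U, x *ᵥ u ∈ U) →
    ∀ (p : Polynomial F), ∀ u ∈ U, (Polynomial.aeval x p) *ᵥ u ∈ U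

/-- [POLYB] a matrix commuting with `x` on the `x`-invariant subspace `U` commutes on `U` with
the polynomials in `x`. -/
def PkgPolyB : Prop :=
  ∀ {F : Type u} [Field F] {ι : Type} [Fintype ι] [DecidableEq ι]
    (x M : Matrix ι ι F) (U : Submodule F (ι → F)), (∀ u ∈ U, x *ᵥ u ∈ U) →
    (∀ u ∈ U, M *ᵥ (x *ᵥ u) = x *ᵥ (M *ᵥ u)) →
    ∀ (p : Polynomial F), ∀ u ∈ U, M *ᵥ ((Polynomial.aeval x p) *ᵥ u) =
      (Polynomial.aeval x p) *ᵥ (M *ᵥ u)

/-- [PINV] if `x ^ r = 1`, `r ≠ 0` in `F`, and `g` commutes with `x` on the `x`- and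
`g`-invariant subspace `W`, then `g` stabilizes `W ⊓ fixSp x` and `W ⊓ movSp x`
(`movSp x = ker (psi r)(x)`). -/
def PkgPInv : Prop :=
  ∀ {F : Type u} [Field F] {ι : Type} [Fintype ι] [DecidableEq ι]
    (r : ℕ) (x : Matrix ι ι F), (r : F) ≠ 0 → x ^ r = 1 →
    ∀ (W : Submodule F (ι → F)), (∀ w ∈ W, x *ᵥ w ∈ W) →
    ∀ g : Matrix ι ι F, (∀ w ∈ W, g *ᵥ w ∈ W) →
    (∀ w ∈ W, g *ᵥ (x *ᵥ w) = x *ᵥ (g *ᵥ w)) →
    (∀ w ∈ W ⊓ fixSp x, g *ᵥ w ∈ W ⊓ fixSp x) ∧ (∀ w ∈ W ⊓ movSp x, g *ᵥ w ∈ W ⊓ movSp x)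

/-- [SQRTPHI] for `i` even, `a` has a square root modulo `1 + X + ⋯ + X ^ (r - 1)`: the quotient
ring is a finite reduced ring, hence a product of finite fields `K ⊇ F`; in each the class of `X`
has order `r`, so `r ∣ |K| - 1`, `i ∣ [K : F]`, `[K : F]` is even and `a` is a square in `K`. -/
def PkgSqrtPhi : Prop :=
  ∀ {F : Type u} [Field F] [Fintype F], Odd (Fintype.card F) →
    ∀ (r : ℕ), r.Prime → r ≠ 2 → ¬ r ∣ Fintype.card F → Even (ordI (Fintype.card F) r) →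
    ∀ a : F, ∃ g₀ : Polynomial F, psi F r ∣ g₀ ^ 2 - Polynomial.C a

/-- [ZSQ] a square root of `a` modulo `psi r`, evaluated at `x` with `x ^ r = 1`, squares to `a`
on `movSp x`. -/
def PkgZSq : Prop :=
  ∀ {F : Type u} [Field F] {ι : Type} [Fintype ι] [DecidableEq ι]
    (r : ℕ) (x : Matrix ι ι F), x ^ r = 1 → ∀ (a : F) (g₀ : Polynomial F),
    psi F r ∣ g₀ ^ 2 - Polynomial.C a →
    ∀ v ∈ movSp x, (Polynomial.aeval x g₀) *ᵥ ((Polynomial.aeval x g₀) *ᵥ v) = a • v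

/-- [ZPOW] if `ω` stabilizes `N` and squares to `a ≠ 0` on `N`, then `ω ^ (q ^ m) = ω` on `N`
for `m` even (`q ^ m = 2 k + 1` with `(q - 1) ∣ k`). -/
def PkgZPow : Prop :=
  ∀ {F : Type u} [Field F] [Fintype F], Odd (Fintype.card F) →
    ∀ {ι : Type} [Fintype ι] [DecidableEq ι] (a : F), a ≠ 0 →
    ∀ (ω : Matrix ι ι F) (N : Submodule F (ι → F)), (∀ v ∈ N, ω *ᵥ v ∈ N) →
    (∀ v ∈ N, ω *ᵥ (ω *ᵥ v) = a • v) → ∀ m : ℕ, Even m →
    ∀ v ∈ N, (ω ^ (Fintype.card F ^ m)) *ᵥ v = ω *ᵥ v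

/-- [NDTOP] the polar form of a nondegenerate quadratic form is nondegenerate on `⊤`. -/
def PkgNdTop : Prop :=
  ∀ {F : Type u} [Field F] {ι : Type} [Fintype ι] [DecidableEq ι] (Q : (ι → F) → F),
    Cfsg.Geo.IsNondegenerateQuadraticForm Q → Nd Q ⊤

end Cfsg.Agent.Lib.Helper60.OFM
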