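-- Team project OFM (S5978): package [SYL4] from its leaves (helper60).
import Cfsg.Agent.Lib.Helper60.OFM.Syl4Defs
import Cfsg.Agent.Lib.Helper74.OFM.Defs
import Cfsg.Agent.Lib.Helper59.OHyp.BlkDefs

/-!
# [SYL4] from the leaves of the cut

Strong induction on `finrank W` for `P`-invariant nondegenerate `W` of even dimension: there is
a structure on `W` commuting with `P` on `W`.  If `P` is trivial on `W`: [EXK].  Otherwise
[CENTW] gives `z`, [RESTR] an isometry `z'` of order `r` agreeing with `z` on `W`; `W` splits as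
`(W ⊓ fixSp z') ⊕ (W ⊓ movSp z')` ([SPLIT]), both `P`-invariant ([PINV]), the second nonzero of
even dimension ([DIV]) with the structure `g₀(z')` ([SQRTPHI], [ZSQ], [ZPOW], [FROB]); induction
on the first and [GLUE].
-/

set_option autoImplicit false

namespace Cfsg.Agent.Lib.Helper60.OFM

open Matrix Cfsg.Agent.Lib.Helper23.OHyp

universe u

section aux

variable {F : Type u} [Field F] {ι : Type} [Fintype ι] [DecidableEq ι]

theorem inv_iff_syl4 (x : Matrix ι ι F) (W : Submodule F (ι → F)) :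
    Cfsg.Agent.Lib.Helper23.OHyp.Inv x W ↔ ∀ w ∈ W, x *ᵥ w ∈ W := by
  unfold Cfsg.Agent.Lib.Helper23.OHyp.Inv
  rw [Submodule.map_le_iff_le_comap]
  constructor
  · intro h w hw
    have h1 := h hw
    rw [Submodule.mem_comap, Matrix.toLin'_apply] at h1
    exact h1
  · intro h w hw
    rw [Submodule.mem_comap, Matrix.toLin'_apply]
    exact h w hw

theorem two_ne_zero_syl4 [Fintype F] (hodd : Odd (Fintype.card F)) : (2 : F) ≠ 0 := by
  apply Ring.two_ne_zero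
  intro h
  have := FiniteField.even_card_of_char_two h
  rcases hodd with ⟨k, hk⟩
  omega

theorem natCast_ne_zero_syl4 [Fintype F] (r : ℕ) (hr : r.Prime) (hrq : ¬ r ∣ Fintype.card F) :
    (r : F) ≠ 0 := by
  intro h0
  obtain ⟨p, hp⟩ := CharP.exists F
  have := hp
  have hpp : p.Prime := CharP.char_is_prime F p
  have hdvd : p ∣ r := (CharP.cast_eq_zero_iff F p r).1 h0
  have hpr : p = r := (Nat.prime_dvd_prime_iff_eq hpp hr).1 hdvd
  subst hpr
  have : Fact p.Prime := ⟨hpp⟩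
  obtain ⟨n, hn⟩ := FiniteField.card F p
  apply hrq
  rw [hn.2]
  exact dvd_pow_self p n.ne_zero

theorem cc_even_syl4 (q r : ℕ) : Even (cc q r) := by
  unfold cc
  split_ifs with h
  · exact h
  · exact even_two_mul _

end aux

/-- The structure `g₀(x)` on `movSp x`. -/
theorem zstr_syl4 (hSplit : PkgSplit.{u}) (hFrob : Cfsg.Agent.Lib.Helper59.OHyp.PkgFrob.{u})
    (hPolyA : PkgPolyA.{u}) (hSqrt : PkgSqrtPhi.{u}) (hZSq : PkgZSq.{u}) (hZPow : PkgZPow.{u})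
    {F : Type u} [Field F] [Fintype F] (hodd : Odd (Fintype.card F))
    {ι : Type} [Fintype ι] [DecidableEq ι] (Q : (ι → F) → F) (r : ℕ) (x : Matrix ι ι F)
    (hS : Std Q r x) (a : F) (ha : a ≠ 0) (h4 : 4 ∣ ordI (Fintype.card F) r) :
    ∃ g₀ : Polynomial F,
      (∀ v ∈ movSp x, (Polynomial.aeval x g₀) *ᵥ ((Polynomial.aeval x g₀) *ᵥ v) = a • v) ∧
      (∀ u : ι → F, ∀ v ∈ movSp x,
        QuadraticMap.polar Q ((Polynomial.aeval x g₀) *ᵥ u) v =
          QuadraticMap.polar Q u ((Polynomial.aeval x g₀) *ᵥ v)) := by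
  have heven : Even (ordI (Fintype.card F) r) := by
    obtain ⟨k, hk⟩ := h4
    exact ⟨2 * k, by omega⟩
  have hm : Even (ordI (Fintype.card F) r / 2) := by
    obtain ⟨k, hk⟩ := h4
    exact ⟨k, by omega⟩
  obtain ⟨g₀, hg₀⟩ := hSqrt hodd r hS.prime hS.ne_two hS.ndvd heven a
  have hsq := hZSq r x hS.pow a g₀ hg₀
  refine ⟨g₀, hsq, ?_⟩
  intro u v hv
  obtain ⟨_, _, _, _, hMovInv, _⟩ := hSplit F ι Q r x hS
  have hinv : ∀ v ∈ movSp x, x *ᵥ v ∈ movSp x := (inv_iff_syl4 x (movSp x)).1 hMovInv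
  have hω : ∀ v ∈ movSp x, (Polynomial.aeval x g₀) *ᵥ v ∈ movSp x := hPolyA x (movSp x) hinv g₀
  have h1 := hFrob F ι Q r x hS heven g₀ u v
  rw [h1]
  have h2 := hZPow hodd a ha (Polynomial.aeval x g₀) (movSp x) hω hsq
    (ordI (Fintype.card F) r / 2) hm v hv
  rw [h2]

/-- The induction. -/
theorem syl4_ind (hSplit : PkgSplit.{u}) (hDiv : PkgDiv.{u})
    (hFrob : Cfsg.Agent.Lib.Helper59.OHyp.PkgFrob.{u})
    (hExK : ExK.{u}) (hGlue : PkgGlue.{u}) (hCentW : PkgCentW.{u}) (hRestr : PkgRestr.{u})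
    (hPolyA : PkgPolyA.{u}) (hPolyB : PkgPolyB.{u}) (hPInv : PkgPInv.{u})
    (hSqrt : PkgSqrtPhi.{u}) (hZSq : PkgZSq.{u}) (hZPow : PkgZPow.{u})
    {F : Type u} [Field F] [Fintype F] (hodd : Odd (Fintype.card F))
    {ι : Type} [Fintype ι] [DecidableEq ι] (Q : (ι → F) → F)
    (hQ : Cfsg.Geo.IsNondegenerateQuadraticForm Q) (a : F) (ha : a ≠ 0)
    (r : ℕ) (hr : r.Prime) (hr2 : r ≠ 2) (hrq : ¬ r ∣ Fintype.card F)
    (h4 : 4 ∣ ordI (Fintype.card F) r)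
    (P : Subgroup (GL ι F)) (hP : P ≤ Cfsg.isometryGroup F Q) (hPr : IsPGroup r P) :
    ∀ n : ℕ, ∀ W : Submodule F (ι → F), Module.finrank F W = n → InvP P W → Nd Q W →
      Even (Module.finrank F W) → ∃ φ : Matrix ι ι F, StrOn Q a W φ ∧ CommOn P W φ := by
  intro n
  induction n using Nat.strong_induction_on with
  | _ n ih =>
  intro W hn hInv hNd hEven
  by_cases htriv : ∀ g ∈ P, ∀ w ∈ W, (g : Matrix ι ι F) *ᵥ w = w
  · obtain ⟨φ, hφ⟩ := hExK hodd Q hQ a W hNd hEven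
    refine ⟨φ, hφ, ?_⟩
    intro g hg w hw
    rw [htriv g hg w hw, htriv g hg _ (hφ.1 w hw)]
  · obtain ⟨z, hzP, ⟨w₀, hw₀W, hw₀⟩, hzr, hzc⟩ := hCentW r hr P hPr W hInv htriv
    have hzi : ∀ v, Q ((z : Matrix ι ι F) *ᵥ v) = Q v := fun v => (hP hzP) v v
    obtain ⟨z', hz'i, hz'W, hz'n⟩ :=
      hRestr hodd Q hQ W hNd (z : Matrix ι ι F) hzi (hInv z hzP)
    have hz'r : z' ^ r = 1 := hz'n r hzr
    have hS : Std Q r z' :=
      ⟨hQ, two_ne_zero_syl4 hodd, hr, hr2, hrq, natCast_ne_zero_syl4 r hr hrq, hz'r, hz'i⟩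
    have hz'Inv : ∀ w ∈ W, z' *ᵥ w ∈ W := fun w hw => by
      rw [hz'W w hw]; exact hInv z hzP w hw
    obtain ⟨_, _, hPerp, _, _, hW⟩ := hSplit F ι Q r z' hS
    obtain ⟨hNdC, hNdN, hInvN, hsup, hfr⟩ := hW W ((inv_iff_syl4 z' W).2 hz'Inv) hNd
    -- `g ∈ P` commutes with `z'` on `W`
    have hcomm : ∀ g ∈ P, ∀ w ∈ W,
        (g : Matrix ι ι F) *ᵥ (z' *ᵥ w) = z' *ᵥ ((g : Matrix ι ι F) *ᵥ w) := by
      intro g hg w hw
      rw [hz'W w hw, hz'W _ (hInv g hg w hw)]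
      exact hzc g hg w hw
    have hPI := fun (g : GL ι F) (hg : g ∈ P) =>
      hPInv r z' hS.ne hz'r W hz'Inv (g : Matrix ι ι F) (hInv g hg) (hcomm g hg)
    have hInvC : InvP P (W ⊓ fixSp z') := fun g hg => (hPI g hg).1
    have hInvN' : InvP P (W ⊓ movSp z') := fun g hg => (hPI g hg).2
    -- the moved part is nonzero
    have hNpos : 0 < Module.finrank F ↥(W ⊓ movSp z') := by
      have hmem : z' *ᵥ w₀ - w₀ ∈ W ⊓ movSp z' := by
        refine ⟨W.sub_mem (hz'Inv w₀ hw₀W) hw₀W, ?_⟩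
        show z' *ᵥ w₀ - w₀ ∈ LinearMap.range (Matrix.toLin' z' - 1)
        refine ⟨w₀, ?_⟩
        simp
      have hne : z' *ᵥ w₀ - w₀ ≠ 0 := by
        rw [hz'W w₀ hw₀W]; exact sub_ne_zero.2 hw₀
      exact Module.finrank_pos_iff_exists_ne_zero.2
        ⟨⟨_, hmem⟩, fun h => hne (congrArg Subtype.val h)⟩
    have hEvenN : Even (Module.finrank F ↥(W ⊓ movSp z')) := by
      obtain ⟨hdvd, _⟩ := hDiv F ι Q r z' hS (W ⊓ movSp z') inf_le_right hInvN hNdN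
      exact (cc_even_syl4 _ _).trans_dvd hdvd
    have hEvenC : Even (Module.finrank F ↥(W ⊓ fixSp z')) := by
      rw [hfr] at hEven
      exact (Nat.even_add.1 hEven).2 hEvenN
    have hlt : Module.finrank F ↥(W ⊓ fixSp z') < n := by omega
    obtain ⟨φC, hφC, hφCc⟩ := ih _ hlt (W ⊓ fixSp z') rfl hInvC hNdC hEvenC
    -- the structure on the moved part
    obtain ⟨g₀, hωsq, hωadj⟩ :=
      zstr_syl4 hSplit hFrob hPolyA hSqrt hZSq hZPow hodd Q r z' hS a ha h4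
    have hz'N : ∀ u ∈ W ⊓ movSp z', z' *ᵥ u ∈ W ⊓ movSp z' :=
      (inv_iff_syl4 z' (W ⊓ movSp z')).1 hInvN
    have hωN : StrOn Q a (W ⊓ movSp z') (Polynomial.aeval z' g₀) :=
      ⟨hPolyA z' _ hz'N g₀, fun w hw => hωsq w hw.2, fun u _ v hv => hωadj u v hv.2⟩
    have hωc : CommOn P (W ⊓ movSp z') (Polynomial.aeval z' g₀) := fun g hg w hw =>
      hPolyB z' (g : Matrix ι ι F) _ hz'N (fun u hu => hcomm g hg u hu.1) g₀ w hw
    have hPerpCN : Perp Q (W ⊓ fixSp z') (W ⊓ movSp z') := fun u hu v hv => hPerp u hu.2 v hv.2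
    obtain ⟨φ, hφ, hφC', hφN'⟩ := hGlue hodd Q hQ a W (W ⊓ fixSp z') (W ⊓ movSp z')
      hNdC hNdN hPerpCN hsup φC (Polynomial.aeval z' g₀) hφC hωN
    refine ⟨φ, hφ, ?_⟩
    intro g hg w hw
    rw [← hsup] at hw
    obtain ⟨c, hc, n', hn', rfl⟩ := Submodule.mem_sup.1 hw
    rw [Matrix.mulVec_add, Matrix.mulVec_add, Matrix.mulVec_add, Matrix.mulVec_add,
      hφC' c hc, hφN' n' hn', hφC' _ (hInvC g hg c hc), hφN' _ (hInvN' g hg n' hn'),
      hφCc g hg c hc, hωc g hg n' hn']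

/-- [SYL4] from the leaves. -/
theorem pkgSyl4_of (hSplit : PkgSplit.{u}) (hDiv : PkgDiv.{u})
    (hFrob : Cfsg.Agent.Lib.Helper59.OHyp.PkgFrob.{u})
    (hExK : ExK.{u}) (hGlue : PkgGlue.{u}) (hCentW : PkgCentW.{u}) (hRestr : PkgRestr.{u})
    (hPolyA : PkgPolyA.{u}) (hPolyB : PkgPolyB.{u}) (hPInv : PkgPInv.{u})
    (hSqrt : PkgSqrtPhi.{u}) (hZSq : PkgZSq.{u}) (hZPow : PkgZPow.{u}) (hNdTop : PkgNdTop.{u}) :
    Cfsg.Agent.Lib.Helper74.OFM.PkgSyl4.{u} := by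
  intro F _ _ hodd ι _ _ Q hQ hι a ha r hr hr2 hrq h4 P hP hPr
  have ha0 : a ≠ 0 := by
    rintro rfl
    exact ha ⟨0, by simp⟩
  have hEven : Even (Module.finrank F ↥(⊤ : Submodule F (ι → F))) := by
    rw [finrank_top, Module.finrank_fintype_fun_eq_card]
    exact hι
  obtain ⟨φ, ⟨_, hsq, hadj⟩, hc⟩ := syl4_ind hSplit hDiv hFrob hExK hGlue hCentW hRestr hPolyA
    hPolyB hPInv hSqrt hZSq hZPow hodd Q hQ a ha0 r hr hr2 hrq h4 P hP hPr _ ⊤ rfl
    (fun _ _ _ _ => Submodule.mem_top) (hNdTop Q hQ) hEven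
  refine ⟨φ, ⟨?_, fun u v => hadj u Submodule.mem_top v Submodule.mem_top⟩, ?_⟩
  · apply Matrix.toLin'.injective
    apply LinearMap.ext
    intro v
    rw [Matrix.toLin'_apply, ← Matrix.mulVec_mulVec, hsq v Submodule.mem_top,
      Matrix.toLin'_apply, Matrix.smul_mulVec, Matrix.one_mulVec]
  · intro g hg
    apply Matrix.toLin'.injective
    apply LinearMap.ext
    intro v
    rw [Matrix.toLin'_apply, Matrix.toLin'_apply, ← Matrix.mulVec_mulVec, ← Matrix.mulVec_mulVec]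
    exact hc g hg v Submodule.mem_top

end Cfsg.Agent.Lib.Helper60.OFM
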