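-- Team project OFM (S5978): package [SYL4], unconditional (helper60).
import Cfsg.Agent.Lib.Helper60.OFM.Syl4Asm
import Cfsg.Agent.Lib.Helper60.OFM.Syl4PInv
import Cfsg.Agent.Lib.Helper97.OHyp.Split
import Cfsg.Agent.Lib.Helper23.OHyp.Final
import Cfsg.Agent.Lib.Helper27.OHyp.BlkFinal
import Cfsg.Agent.Lib.Helper25.OHyp.Frob
import Cfsg.Agent.Lib.Helper75.OFM.Syl4PolyA
import Cfsg.Agent.Lib.Helper75.OFM.Syl4ZPow
import Cfsg.Agent.Lib.Helper47.OFM.Syl4CentW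
import Cfsg.Agent.Lib.Helper47.OFM.Syl4Restr
import Cfsg.Agent.Lib.Helper82.OFM.Syl4Glue
import Cfsg.Agent.Lib.Helper82.OFM.Syl4ExK
import Cfsg.Agent.Lib.Helper17.OFM.Syl4Ex2
import Cfsg.Agent.Lib.Helper85.OFM.Syl4Sqrt

set_option autoImplicit false

namespace Cfsg.Agent.Lib.Helper60.OFM

universe u

/-- [SYL4] (generic) `4 ∣ i`: every `r`-subgroup of the isometry group centralizes a
structure `α'`. -/
theorem pkgSyl4 : Cfsg.Agent.Lib.Helper74.OFM.PkgSyl4.{u} :=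
  pkgSyl4_of Cfsg.Agent.Lib.Helper97.OHyp.pkgSplit
    (Cfsg.Agent.Lib.Helper23.OHyp.pkgDiv_of_blk Cfsg.Agent.Lib.Helper27.OHyp.pkgBlk)
    Cfsg.Agent.Lib.Helper25.OHyp.pkgFrob
    (Cfsg.Agent.Lib.Helper82.OFM.pkgExK Cfsg.Agent.Lib.Helper17.OFM.pkgEx2
      Cfsg.Agent.Lib.Helper82.OFM.pkgGlue)
    Cfsg.Agent.Lib.Helper82.OFM.pkgGlue
    Cfsg.Agent.Lib.Helper47.OFM.pkgCentW
    Cfsg.Agent.Lib.Helper47.OFM.pkgRestr
    Cfsg.Agent.Lib.Helper75.OFM.pkgPolyA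
    Cfsg.Agent.Lib.Helper75.OFM.pkgPolyB
    pkgPInv_h60
    Cfsg.Agent.Lib.Helper85.OFM.pkgSqrtPhi
    Cfsg.Agent.Lib.Helper85.OFM.pkgZSq
    Cfsg.Agent.Lib.Helper75.OFM.pkgZPow
    Cfsg.Agent.Lib.Helper75.OFM.pkgNdTop

end Cfsg.Agent.Lib.Helper60.OFM
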